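import Cfsg.Agent.H373.CV.Base

/-! Reduction of `Hit` to irreducible modules. -/

set_option autoImplicit false
open Finset

namespace Cfsg.Agent.H373.CV

universe u v

/-- The action on an invariant subgroup. -/
def restrict {L : Type v} [Group L] {W : Type u} [AddCommGroup W] (φ : L →* AddMonoid.End W) (U : AddSubgroup W)
    (hU : ∀ x : L, ∀ w ∈ U, φ x w ∈ U) : L →* AddMonoid.End U where
  toFun x :=
    { toFun := fun w => ⟨(φ x) (w : W), hU x (w : W) w.2⟩
      map_zero' := Subtype.ext (map_zero (φ x))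
      map_add' := fun a b => Subtype.ext (map_add (φ x) (a : W) (b : W)) }
  map_one' := by
    ext w
    show φ 1 (w : W) = w
    rw [map_one]
    rfl
  map_mul' x y := by
    ext w
    show φ (x * y) (w : W) = φ x (φ y w)
    rw [map_mul]
    rfl

theorem restrict_apply {L : Type v} [Group L] {W : Type u} [AddCommGroup W] (φ : L →* AddMonoid.End W) (U : AddSubgroup W)
    (hU : ∀ x : L, ∀ w ∈ U, φ x w ∈ U) (x : L) (w : U) : ((restrict φ U hU x w : U) : W) = φ x w := rfl

/-- **It is enough to treat irreducible modules.** -/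
theorem Hit.of_irred {r : ℕ} {L : Type v} [Group L]
    (h : ∀ (W : Type u) [AddCommGroup W] [Finite W] [Nontrivial W], (∀ w : W, r • w = 0) → ∀ φ : L →* AddMonoid.End W,
      (∀ U : AddSubgroup W, (∀ x : L, ∀ w ∈ U, φ x w ∈ U) → U = ⊥ ∨ U = ⊤) →
      ∃ (x : L) (w : W), ∑ i ∈ range (orderOf x), φ (x ^ i) w ≠ 0 ∧ ∀ y : L, orderOf y ≠ r * orderOf x) :
    Hit.{u, v} r L := by
  intro W _ _ _ hW φ
  -- a minimal nonzero invariant subgroup
  obtain ⟨U, ⟨hU, hUb⟩, hmin⟩ : ∃ U : AddSubgroup W, ((∀ x : L, ∀ w ∈ U, φ x w ∈ U) ∧ U ≠ ⊥) ∧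
      ∀ U' : AddSubgroup W, (∀ x : L, ∀ w ∈ U', φ x w ∈ U') ∧ U' ≠ ⊥ → U' ≤ U → U' = U := by
    have hfin : (Set.univ : Set (AddSubgroup W)).Finite := Set.toFinite _
    have hne : ({U : AddSubgroup W | (∀ x : L, ∀ w ∈ U, φ x w ∈ U) ∧ U ≠ ⊥}).Nonempty :=
      ⟨⊤, fun _ _ _ => AddSubgroup.mem_top _, top_ne_bot⟩
    obtain ⟨U, hU⟩ := (Set.toFinite {U : AddSubgroup W | (∀ x : L, ∀ w ∈ U, φ x w ∈ U) ∧ U ≠ ⊥}).exists_minimal hne
    exact ⟨U, hU.1, fun U' h1 h2 => le_antisymm h2 (hU.2 h1 h2)⟩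
  have hnt : Nontrivial U := (AddSubgroup.nontrivial_iff_ne_bot U).2 hUb
  obtain ⟨x, w, h1, h2⟩ := h U (fun w => Subtype.ext (hW w)) (restrict φ U hU) (by
    intro U' hU'
    by_cases hb : U' = ⊥
    · exact Or.inl hb
    · right
      have h3 := hmin (U'.map U.subtype) ⟨?_, ?_⟩ ?_
      · rw [eq_top_iff]
        intro w _
        have h4 : (w : W) ∈ U'.map U.subtype := by rw [h3]; exact w.2
        obtain ⟨w', hw', he⟩ := AddSubgroup.mem_map.1 h4
        rwa [← Subtype.ext he]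
      · intro x w hw
        obtain ⟨w', hw', rfl⟩ := AddSubgroup.mem_map.1 hw
        exact AddSubgroup.mem_map.2 ⟨restrict φ U hU x w', hU' x w' hw', rfl⟩
      · intro h4
        apply hb
        rw [eq_bot_iff]
        intro w hw
        have h5 : (w : W) ∈ U'.map U.subtype := AddSubgroup.mem_map.2 ⟨w, hw, rfl⟩
        rw [h4, AddSubgroup.mem_bot] at h5
        rw [AddSubgroup.mem_bot]
        exact Subtype.ext h5
      · rintro w hw
        obtain ⟨w', -, rfl⟩ := AddSubgroup.mem_map.1 hw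
        exact w'.2)
  refine ⟨x, w, fun h3 => h1 ?_, h2⟩
  apply Subtype.ext
  have h4 : ((∑ i ∈ range (orderOf x), restrict φ U hU (x ^ i) w : U) : W) = ∑ i ∈ range (orderOf x), φ (x ^ i) (w : W) :=
    map_sum U.subtype (fun i => restrict φ U hU (x ^ i) w) (range (orderOf x))
  rw [h4, h3]
  rfl

/-- **Simple groups: the trivial module (`x` of order prime to `r`) and the faithful irreducible modules.** -/
theorem Hit.of_faithful {r : ℕ} (hr : r.Prime) {L : Type v} [Group L] [IsSimpleGroup L]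
    (ht : ∃ x : L, ¬ r ∣ orderOf x ∧ ∀ y : L, orderOf y ≠ r * orderOf x)
    (h : ∀ (W : Type u) [AddCommGroup W] [Finite W] [Nontrivial W], (∀ w : W, r • w = 0) → ∀ φ : L →* AddMonoid.End W,
      Function.Injective φ → (∀ U : AddSubgroup W, (∀ x : L, ∀ w ∈ U, φ x w ∈ U) → U = ⊥ ∨ U = ⊤) →
      ∃ (x : L) (w : W), ∑ i ∈ range (orderOf x), φ (x ^ i) w ≠ 0 ∧ ∀ y : L, orderOf y ≠ r * orderOf x) :
    Hit.{u, v} r L := by
  refine Hit.of_irred fun W _ _ _ hW φ hirr => ?_
  let N : Subgroup L :=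
    { carrier := {x | φ x = 1}
      mul_mem' := fun {a b} ha hb => by
        show φ (a * b) = 1
        rw [map_mul, show φ a = 1 from ha, show φ b = 1 from hb, one_mul]
      one_mem' := map_one φ
      inv_mem' := fun {a} ha => by
        show φ a⁻¹ = 1
        have h1 : φ a⁻¹ * φ a = 1 := by rw [← map_mul, inv_mul_cancel, map_one]
        rwa [show φ a = 1 from ha, mul_one] at h1 }
  have hNn : N.Normal := ⟨fun a ha b => by
    show φ (b * a * b⁻¹) = 1
    rw [map_mul, map_mul, show φ a = 1 from ha, mul_one, ← map_mul, mul_inv_cancel, map_one]⟩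
  rcases hNn.eq_bot_or_eq_top with hN | hN
  · refine h W hW φ (fun a b hab => ?_) hirr
    have h1 : a * b⁻¹ ∈ N := by
      show φ (a * b⁻¹) = 1
      rw [map_mul, hab, ← map_mul, mul_inv_cancel, map_one]
    rw [hN, Subgroup.mem_bot] at h1
    exact mul_inv_eq_one.1 h1
  · have htr : ∀ x : L, φ x = 1 := fun x => by
      have : x ∈ N := by rw [hN]; exact Subgroup.mem_top x
      exact this
    obtain ⟨x, hx, hx2⟩ := ht
    obtain ⟨w, hw⟩ := exists_ne (0 : W)
    refine ⟨x, w, ?_, hx2⟩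
    have h1 : ∑ i ∈ range (orderOf x), φ (x ^ i) w = (orderOf x) • w := by
      rw [Finset.sum_congr rfl (fun i _ => show φ (x ^ i) w = w by rw [htr]; rfl), Finset.sum_const, Finset.card_range]
    rw [h1]
    intro h2
    apply hw
    have hcop : Nat.Coprime r (orderOf x) := (hr.coprime_iff_not_dvd).2 hx
    have h3 : addOrderOf w ∣ r := addOrderOf_dvd_of_nsmul_eq_zero (hW w)
    have h4 : addOrderOf w ∣ orderOf x := addOrderOf_dvd_of_nsmul_eq_zero h2
    have h5 : addOrderOf w = 1 := Nat.dvd_one.1 (by rw [← hcop]; exact Nat.dvd_gcd h3 h4)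
    exact AddMonoid.addOrderOf_eq_one_iff.1 h5

end Cfsg.Agent.H373.CV
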